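import Cfsg.Agent.Lib.Helper3.Stcs6

set_option autoImplicit false
set_option maxRecDepth 100000

namespace Cfsg.Agent.Lib.Helper3.L29

open Cfsg.Agent.Lib.Helper11 Cfsg.Agent.Lib.Helper3

set_option maxHeartbeats 0

noncomputable def ntl : List (List (ℕ × ℕ)) := [[], [(0x4, 8), (0xb, 4), (0x110, 2), (0x111, 1), (0x2, 2), (0x8, 4), (0x4, 8)], [(0x6f, 8), (0x600, 4), (0x300, 2), (0x0, 1), (0x0, 2), (0x0, 4), (0x6c, 8)], [(0x4, 8), (0x7, 4), (0x323, 2), (0x414, 1), (0x202, 2), (0x4, 4), (0x4, 8)], [(0x3, 8), (0xa, 4), (0x21, 2), (0x0, 1), (0x0, 2), (0xc, 4), (0x0, 8)], [(0x4a, 8), (0x400, 4), (0x200, 2), (0x510, 1), (0x20, 2), (0x402, 4), (0x4a, 8)], [(0x4a, 8), (0x402, 4), (0x120, 2), (0x510, 1), (0x0, 2), (0x400, 4), (0x4a, 8)], [(0x64, 8), (0x202, 4), (0x2220, 2), (0x4410, 1), (0x2200, 2), (0xa, 4), (0x64, 8)], [(0x64, 8), (0x40a, 4), (0x2200, 2), (0x4410, 1), (0x2220, 2), (0x2, 4), (0x64, 8)],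 [(0xc0, 8), (0xc0c, 4), (0x130, 2), (0x410, 1), (0x200, 2), (0xc0c, 4), (0xc0, 8)], [(0xc0, 8), (0xc0c, 4), (0x130, 2), (0x140, 1), (0x200, 2), (0xc0c, 4), (0xc0, 8)]]
noncomputable def INV : ℕ := 10492919913943136
abbrev deg : ℕ := 10

theorem setup : NetSetup ntl deg 4 INV 10 where
  hok := by decide +kernel
  hstab := by decide +kernel
  hlen := by decide +kernel
  h0 := by decide +kernel
  hINV := by decide +kernel
  hINV0 := by decide +kernel
  htriv := by decide +kernel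

end Cfsg.Agent.Lib.Helper3.L29
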