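import Cfsg.Agent.Lib.Helper3.L29.Main
import Cfsg.Agent.Lib.Helper3.MatL2
import Cfsg.Agent.Lib.Helper3.F9

set_option autoImplicit false
set_option maxRecDepth 100000

namespace Cfsg.Agent.Lib.Helper3.L29

open Cfsg.Agent.Lib.Helper11 Cfsg.Agent.Lib.Helper3 Matrix

set_option maxHeartbeats 0

def AL : List (List (F9)) := [[⟨0, 2⟩, ⟨2, 2⟩], [⟨1, 1⟩, ⟨2, 1⟩]]
def BL : List (List (F9)) := [[⟨1, 0⟩, ⟨2, 0⟩], [⟨2, 2⟩, ⟨2, 1⟩]]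
def frInvL : List (List (F9)) := [[⟨2, 2⟩, ⟨1, 2⟩], [⟨2, 1⟩, ⟨2, 1⟩]]
def frAL : List (F9) := [⟨1, 2⟩, ⟨2, 1⟩]
def frBL : List ℕ := [3, 4]
def frI : Fin 10 := 0
def PT : ℕ := 0x81715141613121110110
def CS1 : ℕ := 0x3785241568
def CS2 : ℕ := 0x5386472112
def IMG1 : ℕ := 0x2940613875
def IMG2 : ℕ := 0x3672145098
def pt (i : ℕ) : List (F9) := ptOf F9.dec PT 4 2 i
def witJ : Fin 2 := 0
def witK : Fin 2 := 0

theorem chk1 : genChkW [AL] pt (fun i => F9.dec (tb CS1 4 i)) (tb IMG1 4) ntl 1 10 := by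
  decide +kernel
theorem chk2 : genChkW [BL] pt (fun i => F9.dec (tb CS2 4 i)) (tb IMG2 4) ntl 2 10 := by
  decide +kernel

end Cfsg.Agent.Lib.Helper3.L29
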